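import Mathlib
import Cfsg.Prelude.Def_Solvable
import Cfsg.Agent.Lib.Helper5.Pres120
import Cfsg.Agent.Lib.Helper41.SL2OddOrder
import Cfsg.Agent.Lib.Helper41.SL2Quart

/-!
# `SL₂(5)` is a Frobenius complement

The group `SL₂(5)`, in its presentation `⟨x, y, z | x³ = y⁵ = z² = 1, z central, (xy)² = z⟩`,
embeds in `SL₂(11)` and acts there without fixed points on the non-zero vectors of the plane over
the field with `11` elements; the semidirect product is a Frobenius group.
-/

set_option autoImplicit false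

namespace Cfsg.Agent.Lib.Helper39.FrobSL25

open Cfsg.Agent.Lib.Helper5.Pres120

instance fact_prime_11 : Fact (Nat.Prime 11) := ⟨by norm_num⟩

instance fact_prime_5 : Fact (Nat.Prime 5) := ⟨by norm_num⟩

theorem two_ne_zero_5 : (2 : ZMod 5) ≠ 0 := by decide

theorem two_ne_zero_11 : (2 : ZMod 11) ≠ 0 := by decide

theorem trace_neg_one_11 : (-1 : Matrix (Fin 2) (Fin 2) (ZMod 11)).trace ≠ 2 := by decide

theorem zero_ne_one_11 : (0 : ZMod 11) ≠ 1 := by decide

theorem Z₅_eq : Z₅ = Cfsg.Agent.Lib.Helper41.negOne := by decide +kernel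

/-- an element of order 3 of `SL₂(11)` -/
def X₁₁ : Matrix.SpecialLinearGroup (Fin 2) (ZMod 11) := ⟨!![7, 1; 9, 3], by decide⟩

/-- an element of order 5 of `SL₂(11)` -/
def Y₁₁ : Matrix.SpecialLinearGroup (Fin 2) (ZMod 11) := ⟨!![3, 0; 0, 4], by decide⟩

/-- the central involution of `SL₂(11)` -/
def Z₁₁ : Matrix.SpecialLinearGroup (Fin 2) (ZMod 11) := ⟨!![-1, 0; 0, -1], by decide⟩

theorem n1 : X₁₁ ^ 3 = 1 := by decide +kernel
theorem n2 : Y₁₁ ^ 5 = 1 := by decide +kernel
theorem n3 : Z₁₁ ^ 2 = 1 := by decide +kernel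
theorem n4 : Z₁₁⁻¹ * X₁₁ * Z₁₁ * X₁₁⁻¹ = 1 := by decide +kernel
theorem n5 : Z₁₁⁻¹ * Y₁₁ * Z₁₁ * Y₁₁⁻¹ = 1 := by decide +kernel
theorem n6 : (X₁₁ * Y₁₁) ^ 2 * Z₁₁⁻¹ = 1 := by decide +kernel
theorem n7 : X₁₁ ≠ 1 := by decide +kernel
theorem n8 : Y₁₁ ≠ 1 := by decide +kernel
theorem n9 : ¬ (X₁₁ * Y₁₁) ^ 2 ^ 1 = 1 := by decide +kernel
theorem n10 : Z₁₁ ≠ 1 := by decide +kernel
theorem n11 : (X₁₁ * Y₁₁) ^ 2 ^ (1 + 1) = 1 := by decide +kernel

/-- the homomorphism of the presented group `SL₂(5)` into `SL₂(11)` -/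
noncomputable def θ : PresentedGroup rels →* Matrix.SpecialLinearGroup (Fin 2) (ZMod 11) :=
  lift X₁₁ Y₁₁ Z₁₁ n1 n2 n3 n4 n5 n6

theorem card_pres : Nat.card (PresentedGroup rels) = 120 := by
  rw [Nat.card_congr equivSL.toEquiv, card_SL2_five]

theorem θ_injective : Function.Injective θ := by
  haveI := finite_and_card_le.1
  haveI : Fact (Nat.Prime 3) := ⟨by norm_num⟩
  haveI : Fact (Nat.Prime 2) := ⟨by norm_num⟩
  rw [← MonoidHom.ker_eq_bot_iff]
  have hx : θ (PresentedGroup.of 0) = X₁₁ := lift_x _ _ _ _ _ _ _ _ _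
  have hy : θ (PresentedGroup.of 1) = Y₁₁ := lift_y _ _ _ _ _ _ _ _ _
  have hz : θ (PresentedGroup.of 2) = Z₁₁ := lift_z _ _ _ _ _ _ _ _ _
  have o3 : orderOf X₁₁ = 3 := orderOf_eq_prime n1 n7
  have o5 : orderOf Y₁₁ = 5 := orderOf_eq_prime n2 n8
  have o4 : orderOf (X₁₁ * Y₁₁) = 2 ^ (1 + 1) := orderOf_eq_prime_pow n9 n11
  have hdvd : ∀ g : Matrix.SpecialLinearGroup (Fin 2) (ZMod 11), g ∈ θ.range →
      orderOf g ∣ Nat.card θ.range := by
    intro g hg
    have := orderOf_dvd_natCard (⟨g, hg⟩ : θ.range)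
    rwa [Subgroup.orderOf_mk] at this
  have d3 : 3 ∣ Nat.card θ.range := by
    have h := hdvd _ ⟨_, hx⟩
    rw [o3] at h
    exact h
  have d5 : 5 ∣ Nat.card θ.range := by
    have h := hdvd _ ⟨_, hy⟩
    rw [o5] at h
    exact h
  have d4 : 4 ∣ Nat.card θ.range := by
    have h := hdvd _ ⟨PresentedGroup.of 0 * PresentedGroup.of 1, by rw [map_mul, hx, hy]⟩
    rw [o4] at h
    exact h
  have d60 : 60 ∣ Nat.card θ.range := by omega
  have hrk : Nat.card θ.ker * Nat.card θ.range = 120 := by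
    rw [← Subgroup.index_ker, Subgroup.card_mul_index, card_pres]
  have hcard2 : Nat.card θ.ker ∣ 2 := by
    obtain ⟨m, hm⟩ := d60
    rw [hm] at hrk
    exact ⟨m, by nlinarith⟩
  rw [Subgroup.eq_bot_iff_forall]
  intro k hk
  by_contra hk1
  have hk2 : k ^ 2 = 1 := by
    have h1 : orderOf k ∣ Nat.card θ.ker := by
      have := orderOf_dvd_natCard (⟨k, hk⟩ : θ.ker)
      rwa [Subgroup.orderOf_mk] at this
    exact orderOf_dvd_iff_pow_eq_one.mp (h1.trans hcard2)
  have h25 : (2 : ZMod 5) ≠ 0 := two_ne_zero_5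
  have hk' : equivSL k * equivSL k = 1 := by rw [← map_mul, ← pow_two, hk2, map_one]
  rcases Cfsg.Agent.Lib.Helper41.sq_eq_one_cases h25 (equivSL k) hk' with h | h
  · exact hk1 (equivSL.injective (by rw [h, map_one]))
  · have hZ : equivSL (PresentedGroup.of 2) = Cfsg.Agent.Lib.Helper41.negOne := by
      show toSL (PresentedGroup.of 2) = _
      rw [toSL, lift_z]
      exact Z₅_eq
    have hkz : k = PresentedGroup.of 2 := equivSL.injective (by rw [h, hZ])
    have hθk : θ k = 1 := hk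
    rw [hkz, hz] at hθk
    exact n10 hθk

theorem fixed_trace {A : Matrix.SpecialLinearGroup (Fin 2) (ZMod 11)} {v : Fin 2 → ZMod 11}
    (hv : v ≠ 0) (h : A.1.mulVec v = v) : A.1.trace = 2 := by
  have h0 := congrFun h 0
  have h1 := congrFun h 1
  simp only [Matrix.mulVec, dotProduct, Fin.sum_univ_two] at h0 h1
  have hdet := A.det_coe
  rw [Matrix.det_fin_two] at hdet
  rw [Matrix.trace_fin_two]
  by_contra hne
  apply hv
  have key : (2 - (A.1 0 0 + A.1 1 1)) ≠ 0 := fun h' => hne (by linear_combination -h')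
  have e0 : (2 - (A.1 0 0 + A.1 1 1)) * v 0 = 0 := by
    linear_combination (A.1 1 1 - 1) * h0 - A.1 0 1 * h1 - v 0 * hdet
  have e1 : (2 - (A.1 0 0 + A.1 1 1)) * v 1 = 0 := by
    linear_combination (A.1 0 0 - 1) * h1 - A.1 1 0 * h0 - v 1 * hdet
  funext i
  fin_cases i
  · exact (mul_eq_zero.mp e0).resolve_left key
  · exact (mul_eq_zero.mp e1).resolve_left key

theorem θ_fixed (c : PresentedGroup rels) (v : Fin 2 → ZMod 11) (hv : v ≠ 0)
    (h : (θ c).1.mulVec v = v) : c = 1 := by
  haveI := finite_and_card_le.1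
  apply θ_injective
  rw [map_one]
  have htr := fixed_trace hv h
  have h22 : (θ c) ^ (2 * 11) = 1 :=
    Cfsg.Agent.Lib.Helper41.pow_two_mul_char_of_trace_sq 11 (θ c) (by rw [htr]; norm_num)
  have h120 : (θ c) ^ 120 = 1 := by
    rw [← map_pow, ← card_pres, pow_card_eq_one', map_one]
  have h2 : (θ c) ^ 2 = 1 := by
    have a1 := orderOf_dvd_of_pow_eq_one h22
    have a2 := orderOf_dvd_of_pow_eq_one h120
    have a3 := Nat.dvd_gcd a1 a2
    have a4 : Nat.gcd (2 * 11) 120 = 2 := by norm_num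
    rw [a4] at a3
    exact orderOf_dvd_iff_pow_eq_one.mp a3
  have h211 : (2 : ZMod 11) ≠ 0 := two_ne_zero_11
  rcases Cfsg.Agent.Lib.Helper41.sq_eq_one_cases h211 (θ c) (by rw [← pow_two]; exact h2)
    with h1 | h1
  · exact h1
  · exfalso
    rw [h1, Cfsg.Agent.Lib.Helper41.negOne_coe] at htr
    exact trace_neg_one_11 htr

/-- the action of `SL₂(11)` on the plane, written multiplicatively -/
noncomputable def planeAct : Matrix.SpecialLinearGroup (Fin 2) (ZMod 11) →*
    MulAut (Multiplicative (Fin 2 → ZMod 11)) where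
  toFun A := AddEquiv.toMultiplicative (Matrix.SpecialLinearGroup.toLin' A).toAddEquiv
  map_one' := by
    ext v
    simp
  map_mul' A B := by
    ext v
    simp [Matrix.SpecialLinearGroup.toLin'_apply]

theorem planeAct_apply (A : Matrix.SpecialLinearGroup (Fin 2) (ZMod 11))
    (n : Multiplicative (Fin 2 → ZMod 11)) :
    planeAct A n = Multiplicative.ofAdd (A.1.mulVec (Multiplicative.toAdd n)) := by
  simp [planeAct, Matrix.SpecialLinearGroup.toLin'_apply]

/-- the Frobenius group `11² : SL₂(5)` -/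
abbrev FrobL : Type :=
  Multiplicative (Fin 2 → ZMod 11) ⋊[planeAct.comp θ] PresentedGroup rels

instance : Finite FrobL :=
  haveI := finite_and_card_le.1
  Finite.of_equiv _ SemidirectProduct.equivProd.symm

theorem frob :
    Cfsg.IsFrobeniusComplement (SemidirectProduct.inr : PresentedGroup rels →* FrobL).range := by
  refine ⟨?_, ?_, ?_⟩
  · intro h
    have h1 : (SemidirectProduct.inr (PresentedGroup.of 2) : FrobL) ∈ (⊥ : Subgroup FrobL) := by
      rw [← h]
      exact ⟨_, rfl⟩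
    rw [Subgroup.mem_bot] at h1
    have h2 := congrArg SemidirectProduct.right h1
    rw [SemidirectProduct.right_inr, SemidirectProduct.one_right] at h2
    have h3 : θ (PresentedGroup.of 2) = Z₁₁ := lift_z _ _ _ _ _ _ _ _ _
    rw [h2, map_one] at h3
    exact n10 h3.symm
  · intro h
    have h1 : (SemidirectProduct.inl (Multiplicative.ofAdd (fun _ => (1 : ZMod 11))) : FrobL) ∈
        (⊤ : Subgroup FrobL) := Subgroup.mem_top _
    rw [← h] at h1
    obtain ⟨g, hg⟩ := h1
    have h2 := congrArg SemidirectProduct.left hg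
    rw [SemidirectProduct.left_inr, SemidirectProduct.left_inl] at h2
    have h3 := congrFun (congrArg Multiplicative.toAdd h2) 0
    have h4 : (0 : ZMod 11) = 1 := by simpa using h3
    exact zero_ne_one_11 h4
  · intro g hg
    rw [eq_bot_iff]
    rintro a ⟨ha1, ha2⟩
    obtain ⟨c, rfl⟩ := ha1
    obtain ⟨s, hs, hsa⟩ := (Subgroup.mem_smul_pointwise_iff_exists _ _ _).mp ha2
    obtain ⟨c', rfl⟩ := hs
    rw [MulAut.smul_def, MulAut.conj_apply] at hsa
    have hR := congrArg SemidirectProduct.right hsa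
    have hL := congrArg SemidirectProduct.left hsa
    simp only [SemidirectProduct.mul_right, SemidirectProduct.mul_left, SemidirectProduct.inv_right,
      SemidirectProduct.inv_left, SemidirectProduct.right_inr, SemidirectProduct.left_inr,
      map_one, mul_one, MulAut.one_apply] at hR hL
    have hgl : g.left ≠ 1 := by
      intro h1
      apply hg
      refine ⟨g.right, ?_⟩
      ext
      · rw [SemidirectProduct.left_inr, h1]
      · rw [SemidirectProduct.right_inr]
    have hfix : (planeAct.comp θ) c (g.left⁻¹) = g.left⁻¹ := by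
      have e1 : (planeAct.comp θ) (g.right * c') ((planeAct.comp θ) g.right⁻¹ g.left⁻¹) =
          (planeAct.comp θ) c (g.left⁻¹) := by
        rw [← MulAut.mul_apply, ← map_mul, hR]
      rw [e1] at hL
      exact eq_inv_of_mul_eq_one_right hL
    rw [MonoidHom.comp_apply, planeAct_apply] at hfix
    have hv : Multiplicative.toAdd (g.left⁻¹) ≠ 0 := by
      intro h0
      apply hgl
      have : g.left⁻¹ = 1 := by
        apply Multiplicative.toAdd.injective
        rw [h0]
        rfl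
      exact inv_eq_one.mp this
    have hc := θ_fixed c (Multiplicative.toAdd (g.left⁻¹)) hv
      (by
        have := congrArg Multiplicative.toAdd hfix
        simpa using this)
    rw [hc, map_one]
    exact Subgroup.mem_bot.mpr rfl

end Cfsg.Agent.Lib.Helper39.FrobSL25
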