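import Mathlib
import Cfsg.Prelude.Def_Characters
import Cfsg.Prelude.Def_ParabolicCharacters
import Cfsg.Agent.Lib.Helper39.GL2Princ
import Cfsg.Agent.Lib.Helper39.SL2Mackey

set_option autoImplicit false

namespace Cfsg.Agent.Lib.Helper39

open Matrix Representation
open scoped ComplexConjugate

universe u

variable {F : Type u} [Field F] [Fintype F] [DecidableEq F]

/-- the value of the principal series function of `GL₂` on the Borel subgroup -/
theorem indFun_lamB_borel (α β : MulChar F ℂ) (a d : Fˣ) (s : F) :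
    Cfsg.indFun (Cfsg.upperTriangularGL 2 F) (lamB α β) (bGL a d s) = α (a : F) * β (d : F) +
      (∑ y : F, if ((d : F) - (a : F)) * y - s = 0 then (1 : ℂ) else 0) *
        (α (d : F) * β (a : F)) := by
  rw [indFun_lamB]
  simp only [bGL_coe, lamFun]
  simp only [Matrix.of_apply, Matrix.cons_val', Matrix.cons_val_zero, Matrix.cons_val_one,
    Matrix.cons_val_fin_one, if_true, zero_mul, zero_add, sub_zero]
  congr 1
  rw [Finset.sum_mul]
  refine Finset.sum_congr rfl (fun y _ => ?_)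
  split_ifs <;> simp

theorem card_borelGL : (Nat.card (Cfsg.upperTriangularGL 2 F) : ℂ) =
    ((Fintype.card F : ℂ) - 1) ^ 2 * (Fintype.card F : ℂ) := by
  rw [Nat.card_congr (bEquiv (F := F)).symm, Nat.card_prod, Nat.card_prod, Nat.card_units,
    Nat.card_eq_fintype_card]
  push_cast [Nat.cast_sub (Fintype.card_pos (α := F))]
  ring

/-- the norm of the principal series function of `GL₂` for two distinct characters (Mackey). -/
theorem classInner_indFun_lamB (α β : MulChar F ℂ) (hαβ : α ≠ β) :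
    Cfsg.classInner (Cfsg.indFun (Cfsg.upperTriangularGL 2 F) (lamB α β))
      (Cfsg.indFun (Cfsg.upperTriangularGL 2 F) (lamB α β)) = 1 := by
  classical
  letI : Fintype (Cfsg.upperTriangularGL 2 F) := Fintype.ofEquiv _ bEquiv
  rw [Cfsg.Agent.Lib.Helper3.frobenius_reciprocity _ _ _
    (Cfsg.Agent.Lib.Helper3.isClassFunction_indFun _ _)]
  unfold Cfsg.classInner
  rw [card_borelGL]
  have hq := card_sub_one_ne_zero (F := F)
  have hq0 : (Fintype.card F : ℂ) ≠ 0 := by
    have := Fintype.card_pos (α := F)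
    exact_mod_cast this.ne'
  have h1 : ∑ b : Cfsg.upperTriangularGL 2 F, lamB α β b *
      conj (Cfsg.indFun (Cfsg.upperTriangularGL 2 F) (lamB α β) (b : GL (Fin 2) F)) =
      ∑ p : Fˣ × Fˣ × F, (1 + (∑ y : F, if ((p.2.1 : F) - (p.1 : F)) * y - p.2.2 = 0
        then (1 : ℂ) else 0) * ((α * β⁻¹) (p.1 : F) * (β * α⁻¹) (p.2.1 : F))) := by
    symm
    refine Fintype.sum_equiv bEquiv _ _ (fun p => ?_)
    have hb : ((bEquiv p : Cfsg.upperTriangularGL 2 F) : GL (Fin 2) F) =
        bGL p.1 p.2.1 p.2.2 := rfl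
    rw [lamB_bEquiv, hb, indFun_lamB_borel, map_add, map_mul, map_mul, map_mul, mul_add]
    have hsum : conj (∑ y : F, if ((p.2.1 : F) - (p.1 : F)) * y - p.2.2 = 0
        then (1 : ℂ) else 0) = ∑ y : F, if ((p.2.1 : F) - (p.1 : F)) * y - p.2.2 = 0
        then (1 : ℂ) else 0 := by
      rw [map_sum]
      refine Finset.sum_congr rfl (fun y _ => ?_)
      split_ifs <;> simp
    have e1 : α (p.1 : F) * α⁻¹ (p.1 : F) = 1 := by
      rw [← MulChar.mul_apply, mul_inv_cancel, MulChar.one_apply_coe]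
    have e2 : β (p.2.1 : F) * β⁻¹ (p.2.1 : F) = 1 := by
      rw [← MulChar.mul_apply, mul_inv_cancel, MulChar.one_apply_coe]
    rw [hsum]
    simp only [mulChar_conj_unit, MulChar.mul_apply]
    linear_combination -(β (p.2.1 : F) * β⁻¹ (p.2.1 : F)) * e1 - e2
  have h2 : ∀ a d : Fˣ, ∑ s : F, (1 + (∑ y : F, if ((d : F) - (a : F)) * y - s = 0
      then (1 : ℂ) else 0) * ((α * β⁻¹) (a : F) * (β * α⁻¹) (d : F))) =
      (Fintype.card F : ℂ) + (Fintype.card F : ℂ) * ((α * β⁻¹) (a : F) * (β * α⁻¹) (d : F)) := by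
    intro a d
    rw [Finset.sum_add_distrib, ← Finset.sum_mul, sum_count_aux]
    simp
  have h3 : ∑ d : Fˣ, (β * α⁻¹) (d : F) = 0 := by
    rw [mulChar_sum_units, if_neg]
    intro h
    apply hαβ
    rw [mul_inv_eq_one] at h
    exact h.symm
  have h4 : ∀ a : Fˣ, ∑ d : Fˣ, ((Fintype.card F : ℂ) +
      (Fintype.card F : ℂ) * ((α * β⁻¹) (a : F) * (β * α⁻¹) (d : F))) =
      ((Fintype.card F : ℂ) - 1) * (Fintype.card F : ℂ) := by
    intro a
    rw [Finset.sum_add_distrib, ← Finset.mul_sum, ← Finset.mul_sum, h3]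
    simp only [Finset.sum_const, Finset.card_univ, nsmul_eq_mul, mul_zero, add_zero]
    rw [Fintype.card_units, Nat.cast_sub (Fintype.card_pos (α := F)), Nat.cast_one]
  rw [h1, Fintype.sum_prod_type]
  simp only [Fintype.sum_prod_type, h2, h4]
  simp only [Finset.sum_const, Finset.card_univ, nsmul_eq_mul]
  rw [Fintype.card_units, Nat.cast_sub (Fintype.card_pos (α := F)), Nat.cast_one]
  field_simp

end Cfsg.Agent.Lib.Helper39
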