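import Mathlib
import Cfsg.Prelude.Def_Characters
import Cfsg.Prelude.Def_ParabolicCharacters
import Cfsg.Prelude.Def_Blocks
import Cfsg.Agent.Lib.Helper39.GL2Mackey
import Cfsg.Agent.Lib.Helper39.GL2Series
import Cfsg.Agent.Lib.Helper39.SL2EvenClass
import Cfsg.Agent.Lib.Helper15.LinIrr

set_option autoImplicit false

namespace Cfsg.Agent.Lib.Helper39

open Matrix Representation
open scoped ComplexConjugate

universe u

section GL2Class

variable {F : Type u} [Field F] [Fintype F] [DecidableEq F]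

/-- the norm of the principal series function of `GL₂` for two equal characters (Mackey). -/
theorem classInner_indFun_lamB_self (α : MulChar F ℂ) :
    Cfsg.classInner (Cfsg.indFun (Cfsg.upperTriangularGL 2 F) (lamB α α))
      (Cfsg.indFun (Cfsg.upperTriangularGL 2 F) (lamB α α)) = 2 := by
  classical
  letI : Fintype (Cfsg.upperTriangularGL 2 F) := Fintype.ofEquiv _ bEquiv
  rw [Cfsg.Agent.Lib.Helper3.frobenius_reciprocity _ _ _
    (Cfsg.Agent.Lib.Helper3.isClassFunction_indFun _ _)]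
  unfold Cfsg.classInner
  rw [card_borelGL]
  have hq := card_sub_one_ne_zero (F := F)
  have hq0 : (Fintype.card F : ℂ) ≠ 0 := by
    have := Fintype.card_pos (α := F)
    exact_mod_cast this.ne'
  have h1 : ∑ b : Cfsg.upperTriangularGL 2 F, lamB α α b *
      conj (Cfsg.indFun (Cfsg.upperTriangularGL 2 F) (lamB α α) (b : GL (Fin 2) F)) =
      ∑ p : Fˣ × Fˣ × F, (1 + (∑ y : F, if ((p.2.1 : F) - (p.1 : F)) * y - p.2.2 = 0
        then (1 : ℂ) else 0)) := by
    symm
    refine Fintype.sum_equiv bEquiv _ _ (fun p => ?_)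
    have hb : ((bEquiv p : Cfsg.upperTriangularGL 2 F) : GL (Fin 2) F) =
        bGL p.1 p.2.1 p.2.2 := rfl
    rw [lamB_bEquiv, hb, indFun_lamB_borel, map_add, map_mul, map_mul, map_mul, mul_add]
    have hsum : conj (∑ y : F, if ((p.2.1 : F) - (p.1 : F)) * y - p.2.2 = 0
        then (1 : ℂ) else 0) = ∑ y : F, if ((p.2.1 : F) - (p.1 : F)) * y - p.2.2 = 0
        then (1 : ℂ) else 0 := by
      rw [map_sum]
      refine Finset.sum_congr rfl (fun y _ => ?_)
      split_ifs <;> simp
    have e1 : α (p.1 : F) * α⁻¹ (p.1 : F) = 1 := by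
      rw [← MulChar.mul_apply, mul_inv_cancel, MulChar.one_apply_coe]
    have e2 : α (p.2.1 : F) * α⁻¹ (p.2.1 : F) = 1 := by
      rw [← MulChar.mul_apply, mul_inv_cancel, MulChar.one_apply_coe]
    rw [hsum]
    simp only [mulChar_conj_unit]
    linear_combination (-(α (p.2.1 : F) * α⁻¹ (p.2.1 : F)) * e1 - e2) *
      (1 + ∑ y : F, if ((p.2.1 : F) - (p.1 : F)) * y - p.2.2 = 0 then (1 : ℂ) else 0)
  have h2 : ∀ a d : Fˣ, ∑ s : F, (1 + (∑ y : F, if ((d : F) - (a : F)) * y - s = 0
      then (1 : ℂ) else 0)) = 2 * (Fintype.card F : ℂ) := by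
    intro a d
    rw [Finset.sum_add_distrib, sum_count_aux]
    simp
    ring
  rw [h1, Fintype.sum_prod_type]
  simp only [Fintype.sum_prod_type, h2]
  simp only [Finset.sum_const, Finset.card_univ, nsmul_eq_mul]
  rw [Fintype.card_units, Nat.cast_sub (Fintype.card_pos (α := F)), Nat.cast_one]
  field_simp

/-- the linear character `α ∘ det` of `GL₂`. -/
noncomputable def detHom (α : MulChar F ℂ) : GL (Fin 2) F →* ℂˣ :=
  (MulChar.toUnitHom α).comp Matrix.GeneralLinearGroup.det

/-- the linear character `α ∘ det` of `GL₂`, as a function. -/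
noncomputable def detChar (α : MulChar F ℂ) : GL (Fin 2) F → ℂ :=
  fun g => ((detHom α g : ℂˣ) : ℂ)

theorem detChar_apply (α : MulChar F ℂ) (g : GL (Fin 2) F) :
    detChar α g = α ((g : Matrix (Fin 2) (Fin 2) F).det) := by
  unfold detChar detHom
  rw [MonoidHom.comp_apply, MulChar.coe_toUnitHom]
  rfl

theorem isIrrCharacter_detChar (α : MulChar F ℂ) :
    Cfsg.IsIrrCharacter (GL (Fin 2) F) (detChar α) :=
  Cfsg.Agent.Lib.Helper80.isIrrCharacter_of_hom (detHom α)

theorem detChar_one (α : MulChar F ℂ) : detChar α 1 = 1 := by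
  unfold detChar
  rw [map_one, Units.val_one]

theorem detChar_bGL (α : MulChar F ℂ) (a d : Fˣ) (s : F) :
    detChar α (bGL a d s) = α (a : F) * α (d : F) := by
  rw [detChar_apply, bGL_coe, Matrix.det_fin_two_of, mul_zero, sub_zero, map_mul]

/-- the principal series function for two equal characters contains `α ∘ det` once. -/
theorem classInner_indFun_lamB_detChar (α : MulChar F ℂ) :
    Cfsg.classInner (Cfsg.indFun (Cfsg.upperTriangularGL 2 F) (lamB α α)) (detChar α) = 1 := by
  classical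
  letI : Fintype (Cfsg.upperTriangularGL 2 F) := Fintype.ofEquiv _ bEquiv
  rw [Cfsg.Agent.Lib.Helper3.frobenius_reciprocity _ _ _
    (Cfsg.Agent.Lib.Helper3.isClassFunction_of_isCharacter
      (Cfsg.Agent.Lib.Helper3.isCharacter_of_irr (isIrrCharacter_detChar α)))]
  unfold Cfsg.classInner
  have h1 : ∀ b : Cfsg.upperTriangularGL 2 F,
      lamB α α b * conj (detChar α (b : GL (Fin 2) F)) = 1 := by
    intro b
    obtain ⟨p, rfl⟩ := bEquiv.surjective b
    have hb : ((bEquiv p : Cfsg.upperTriangularGL 2 F) : GL (Fin 2) F) =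
        bGL p.1 p.2.1 p.2.2 := rfl
    rw [lamB_bEquiv, hb, detChar_bGL, map_mul, mulChar_conj_unit, mulChar_conj_unit]
    have e1 : α (p.1 : F) * α⁻¹ (p.1 : F) = 1 := by
      rw [← MulChar.mul_apply, mul_inv_cancel, MulChar.one_apply_coe]
    have e2 : α (p.2.1 : F) * α⁻¹ (p.2.1 : F) = 1 := by
      rw [← MulChar.mul_apply, mul_inv_cancel, MulChar.one_apply_coe]
    linear_combination (α (p.2.1 : F) * α⁻¹ (p.2.1 : F)) * e1 + e2
  simp only [h1, Finset.sum_const, Finset.card_univ, nsmul_eq_mul, mul_one]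
  rw [Nat.card_eq_fintype_card]
  apply inv_mul_cancel₀
  have := Fintype.card_pos (α := Cfsg.upperTriangularGL 2 F)
  exact_mod_cast this.ne'

/-- the Steinberg-type character `π_{α,α} - α ∘ det` of `GL₂`. -/
noncomputable def stGL (α : MulChar F ℂ) : GL (Fin 2) F → ℂ :=
  Cfsg.indFun (Cfsg.upperTriangularGL 2 F) (lamB α α) - detChar α

theorem isIrrCharacter_stGL (α : MulChar F ℂ) :
    Cfsg.IsIrrCharacter (GL (Fin 2) F) (stGL α) := by
  classical
  have hfin := Cfsg.Agent.Lib.Helper3.irr_finite (G := GL (Fin 2) F)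
  have hft : Fintype (Cfsg.IrrCharacter (GL (Fin 2) F)) := Fintype.ofFinite _
  have h1 := classInner_indFun_lamB_self α
  have h2 := classInner_indFun_lamB_detChar α
  have hone := isIrrCharacter_detChar α
  have hc : Cfsg.IsCharacter (GL (Fin 2) F) (stGL α) :=
    isCharacter_sub_irr (isCharacter_indFun_lamB α α) hone (by rw [h2]; exact one_ne_zero)
  apply Cfsg.Agent.Lib.Helper75.isIrrCharacter_of_classInner_self hc
  have h3 : Cfsg.classInner (detChar α)
      (Cfsg.indFun (Cfsg.upperTriangularGL 2 F) (lamB α α)) = 1 := by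
    rw [← Cfsg.Agent.Lib.Helper80.classInner_conj_symm, h2, map_one]
  unfold stGL
  rw [Cfsg.Agent.Lib.Helper80.classInner_sub_left,
    Cfsg.Agent.Lib.Helper25.classInner_sub_right,
    Cfsg.Agent.Lib.Helper25.classInner_sub_right, h1, h2, h3,
    Cfsg.Agent.Lib.Helper3.classInner_irr_self hone]
  norm_num

theorem stGL_one (α : MulChar F ℂ) : stGL α 1 = (Fintype.card F : ℂ) := by
  unfold stGL
  rw [Pi.sub_apply, indFun_lamB_one, detChar_one]
  ring

theorem stGL_diag (α : MulChar F ℂ) (a : Fˣ) (ha : a ≠ 1) :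
    stGL α (bGL a 1 0) = α (a : F) := by
  unfold stGL
  rw [Pi.sub_apply, indFun_lamB_diag, detChar_bGL, if_neg ha]
  simp

theorem detChar_injective : Function.Injective (detChar (F := F)) := by
  intro α β h
  apply MulChar.ext
  intro a
  have h1 := congrFun h (bGL a 1 0)
  rw [detChar_bGL, detChar_bGL] at h1
  simpa using h1

theorem stGL_injective : Function.Injective (stGL (F := F)) := by
  intro α β h
  apply MulChar.ext
  intro a
  by_cases ha : a = 1
  · rw [ha]
    simp
  · have h1 := congrFun h (bGL a 1 0)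
    rw [stGL_diag α a ha, stGL_diag β a ha] at h1
    exact h1

theorem isIrrCharacter_indFun_lamB (α β : MulChar F ℂ) (hαβ : α ≠ β) :
    Cfsg.IsIrrCharacter (GL (Fin 2) F)
      (Cfsg.indFun (Cfsg.upperTriangularGL 2 F) (lamB α β)) := by
  classical
  have hfin := Cfsg.Agent.Lib.Helper3.irr_finite (G := GL (Fin 2) F)
  have hft : Fintype (Cfsg.IrrCharacter (GL (Fin 2) F)) := Fintype.ofFinite _
  exact Cfsg.Agent.Lib.Helper75.isIrrCharacter_of_classInner_self (isCharacter_indFun_lamB α β)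
    (classInner_indFun_lamB α β hαβ)

/-- the non-cuspidal irreducible characters of `GL₂(q)`. -/
theorem gl2_noncusp {χ : GL (Fin 2) F → ℂ} (hχ : Cfsg.IsIrrCharacter (GL (Fin 2) F) χ)
    (hs : ∑ x : F, χ (tGL x) ≠ 0) :
    (∃ α : MulChar F ℂ, χ = detChar α) ∨ (∃ α : MulChar F ℂ, χ = stGL α) ∨
      ∃ α β : MulChar F ℂ, α ≠ β ∧
        χ = Cfsg.indFun (Cfsg.upperTriangularGL 2 F) (lamB α β) := by
  classical
  obtain ⟨α, β, hαβ⟩ := exists_principal
    (Cfsg.Agent.Lib.Helper3.isClassFunction_of_isCharacter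
      (Cfsg.Agent.Lib.Helper3.isCharacter_of_irr hχ)) hs
  by_cases hab : α = β
  · subst hab
    have e : Cfsg.indFun (Cfsg.upperTriangularGL 2 F) (lamB α α) = detChar α + stGL α := by
      unfold stGL
      funext g
      simp
    rw [e, Cfsg.Agent.Lib.Helper80.classInner_add_left] at hαβ
    by_contra hcon
    push Not at hcon
    apply hαβ
    rw [Cfsg.Agent.Lib.Helper3.classInner_irr_ne (isIrrCharacter_detChar α) hχ
        (fun h => hcon.1 α h.symm),
      Cfsg.Agent.Lib.Helper3.classInner_irr_ne (isIrrCharacter_stGL α) hχ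
        (fun h => hcon.2.1 α h.symm), add_zero]
  · right; right
    refine ⟨α, β, hab, ?_⟩
    by_contra hcon
    apply hαβ
    exact Cfsg.Agent.Lib.Helper3.classInner_irr_ne (isIrrCharacter_indFun_lamB α β hab) hχ
      (fun h => hcon h.symm)

theorem two_mul_choose_two (n : ℕ) : 2 * n.choose 2 = n * (n - 1) := by
  rw [Nat.choose_two_right]
  exact Nat.two_mul_div_two_of_even (Nat.even_mul_pred_self n)

/-- the type of an irreducible character of `GL₂(q)`. -/
theorem gl2_type_sum {χ : GL (Fin 2) F → ℂ} (hχ : Cfsg.IsIrrCharacter (GL (Fin 2) F) χ)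
    (r : ℕ) (hr : Fintype.card F = r + 1) :
    ∃ m k : ℕ, Cfsg.charDegree χ = m + r * k ∧
      ∑ x : F, χ (tGL x) = (Fintype.card F : ℂ) * m := by
  obtain ⟨n, ρ, hirr, hρ, hn, hd⟩ := irr_rep_data hχ
  obtain ⟨m, k, h1, -, hs, -⟩ := unip_decomp ρ
  refine ⟨m, k, ?_, by rw [← hρ]; exact hs⟩
  rw [hd]
  have h3 : ((n : ℕ) : ℂ) = ((m + r * k : ℕ) : ℂ) := by
    rw [← hn, ← hρ, h1, hr]
    push_cast
    ring
  exact_mod_cast h3

/-- a family of `(q - 1)(q - 2) / 2` different irreducible principal series characters. -/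
theorem gl2_principal_family :
    ∃ T : Finset (Cfsg.IrrCharacter (GL (Fin 2) F)),
      T.card = (Fintype.card F - 1).choose 2 ∧
      ∀ χ ∈ T, Cfsg.charDegree χ.1 = Fintype.card F + 1 := by
  classical
  letI : Fintype (MulChar F ℂ) := Fintype.ofFinite _
  have hcardM : Fintype.card (MulChar F ℂ) = Fintype.card F - 1 := by
    rw [← Nat.card_eq_fintype_card, MulChar.card_eq_card_units_of_hasEnoughRootsOfUnity F ℂ,
      Nat.card_eq_fintype_card, Fintype.card_units]
  have hf : ∀ α β : MulChar F ℂ,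
      Sym2.lift ⟨fun α β => Cfsg.indFun (Cfsg.upperTriangularGL 2 F) (lamB α β),
        fun α β => indFun_lamB_swap α β⟩ s(α, β) =
      Cfsg.indFun (Cfsg.upperTriangularGL 2 F) (lamB α β) := fun α β => rfl
  have hirr : ∀ z : Sym2 (MulChar F ℂ), ¬ z.IsDiag →
      Cfsg.IsIrrCharacter (GL (Fin 2) F)
        (Sym2.lift ⟨fun α β => Cfsg.indFun (Cfsg.upperTriangularGL 2 F) (lamB α β),
          fun α β => indFun_lamB_swap α β⟩ z) := by
    intro z
    induction z using Sym2.ind with
    | _ α β =>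
      intro hz
      rw [hf]
      exact isIrrCharacter_indFun_lamB α β (fun h => hz (Sym2.mk_isDiag_iff.mpr h))
  have hinj : ∀ z z' : Sym2 (MulChar F ℂ),
      Sym2.lift ⟨fun α β => Cfsg.indFun (Cfsg.upperTriangularGL 2 F) (lamB α β),
          fun α β => indFun_lamB_swap α β⟩ z =
      Sym2.lift ⟨fun α β => Cfsg.indFun (Cfsg.upperTriangularGL 2 F) (lamB α β),
          fun α β => indFun_lamB_swap α β⟩ z' → z = z' := by
    intro z z'
    induction z using Sym2.ind with
    | _ α β =>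
      induction z' using Sym2.ind with
      | _ α' β' =>
        intro h
        rw [hf, hf, indFun_lamB_eq_iff] at h
        rw [Sym2.eq_iff]
        exact h
  have hdeg : ∀ z : Sym2 (MulChar F ℂ), Cfsg.charDegree
      (Sym2.lift ⟨fun α β => Cfsg.indFun (Cfsg.upperTriangularGL 2 F) (lamB α β),
          fun α β => indFun_lamB_swap α β⟩ z) = Fintype.card F + 1 := by
    intro z
    induction z using Sym2.ind with
    | _ α β =>
      rw [hf]
      apply charDegree_of_one
      rw [indFun_lamB_one]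
      push_cast
      ring
  have hg : Function.Injective (fun z : {z : Sym2 (MulChar F ℂ) // ¬ z.IsDiag} =>
      (⟨_, hirr z.1 z.2⟩ : Cfsg.IrrCharacter (GL (Fin 2) F))) :=
    fun z z' h => Subtype.ext (hinj _ _ (congrArg Subtype.val h))
  refine ⟨Finset.univ.image (fun z : {z : Sym2 (MulChar F ℂ) // ¬ z.IsDiag} =>
      (⟨_, hirr z.1 z.2⟩ : Cfsg.IrrCharacter (GL (Fin 2) F))), ?_, ?_⟩
  · rw [Finset.card_image_of_injective _ hg, Finset.card_univ, ← hcardM]
    convert Sym2.card_subtype_not_diag (α := MulChar F ℂ)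
  · intro χ hχ
    obtain ⟨z, -, rfl⟩ := Finset.mem_image.mp hχ
    exact hdeg z.1

/-- the arithmetic at the end of the classification for `GL₂`. -/
theorem gl2_count_arith (r a n R : ℕ) (hr : 2 ≤ r) (ha : r.choose 2 ≤ a)
    (hn : r + r + a + n + 1 = (r + 1) ^ 2) (hR : n * r ^ 2 ≤ R)
    (hsum : r * 1 ^ 2 + r * (r + 1) ^ 2 + a * (r + 2) ^ 2 + R = (r + 1) * r ^ 2 * (r + 2)) :
    a = r.choose 2 ∧ 2 * n = r * (r + 1) ∧ R = n * r ^ 2 := by
  have hc := two_mul_choose_two r
  obtain ⟨u, rfl⟩ : ∃ u, r = u + 2 := ⟨r - 2, by omega⟩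
  have e1 : u + 2 - 1 = u + 1 := by omega
  rw [e1] at hc
  have hA : 2 * a = (u + 2) * (u + 1) := by
    by_contra hne
    have h3 : (u + 2) * (u + 1) + 1 ≤ 2 * a := by omega
    zify at hR hsum h3 hn
    have hn2 : (n : ℤ) = (u + 2) ^ 2 - a := by linarith
    rw [hn2] at hR
    nlinarith [mul_le_mul_of_nonneg_right h3 (by positivity : (0 : ℤ) ≤ 2 * (u : ℤ) + 6)]
  have hN : 2 * n = (u + 2) * (u + 2 + 1) := by
    zify at hn hA ⊢
    linarith
  refine ⟨by omega, hN, ?_⟩
  zify at hsum hA hN ⊢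
  nlinarith

open Classical in
/-- the classification of the irreducible characters of `GL₂(q)`, `q ≥ 3`, by degrees (from
the number of the conjugacy classes). -/
theorem gl2_class (r : ℕ) (hr : Fintype.card F = r + 1) (hr2 : 2 ≤ r)
    (hcls : Nat.card (ConjClasses (GL (Fin 2) F)) = Fintype.card F ^ 2 - 1) :
    (∀ χ : Cfsg.IrrCharacter (GL (Fin 2) F),
      Cfsg.charDegree χ.1 = 1 ∨ Cfsg.charDegree χ.1 = r ∨
      Cfsg.charDegree χ.1 = r + 1 ∨ Cfsg.charDegree χ.1 = r + 2) ∧
    Nat.card {χ : Cfsg.IrrCharacter (GL (Fin 2) F) // Cfsg.charDegree χ.1 = 1} = r ∧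
    Nat.card {χ : Cfsg.IrrCharacter (GL (Fin 2) F) // Cfsg.charDegree χ.1 = r + 1} = r ∧
    Nat.card {χ : Cfsg.IrrCharacter (GL (Fin 2) F) // Cfsg.charDegree χ.1 = r + 2} =
      r.choose 2 ∧
    Nat.card {χ : Cfsg.IrrCharacter (GL (Fin 2) F) // Cfsg.charDegree χ.1 = r} =
      (r + 1).choose 2 := by
  have hfin := Cfsg.Agent.Lib.Helper3.irr_finite (G := GL (Fin 2) F)
  letI hft : Fintype (Cfsg.IrrCharacter (GL (Fin 2) F)) := Fintype.ofFinite _
  letI : Fintype (MulChar F ℂ) := Fintype.ofFinite _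
  have hcardM : Fintype.card (MulChar F ℂ) = r := by
    rw [← Nat.card_eq_fintype_card, MulChar.card_eq_card_units_of_hasEnoughRootsOfUnity F ℂ,
      Nat.card_eq_fintype_card, Fintype.card_units, hr]
    omega
  have hq0 : (Fintype.card F : ℂ) ≠ 0 := by
    exact_mod_cast (Fintype.card_pos (α := F)).ne'
  have d_det : ∀ α : MulChar F ℂ, Cfsg.charDegree (detChar α) = 1 := by
    intro α
    exact charDegree_of_one (n := 1) (by rw [detChar_one]; simp)
  have d_st : ∀ α : MulChar F ℂ, Cfsg.charDegree (stGL α) = r + 1 := by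
    intro α
    apply charDegree_of_one
    rw [stGL_one, hr]
  have d_ps : ∀ α β : MulChar F ℂ,
      Cfsg.charDegree (Cfsg.indFun (Cfsg.upperTriangularGL 2 F) (lamB α β)) = r + 2 := by
    intro α β
    apply charDegree_of_one
    rw [indFun_lamB_one, hr]
    push_cast
    ring
  have hcl : ∀ χ : Cfsg.IrrCharacter (GL (Fin 2) F),
      ((∃ α : MulChar F ℂ, χ = ⟨detChar α, isIrrCharacter_detChar α⟩) ∧
        Cfsg.charDegree χ.1 = 1) ∨
      ((∃ α : MulChar F ℂ, χ = ⟨stGL α, isIrrCharacter_stGL α⟩) ∧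
        Cfsg.charDegree χ.1 = r + 1) ∨
      Cfsg.charDegree χ.1 = r + 2 ∨
      ((∃ k, Cfsg.charDegree χ.1 = r * k) ∧ Cfsg.charDegree χ.1 ≠ 1 ∧
        Cfsg.charDegree χ.1 ≠ r + 1 ∧ Cfsg.charDegree χ.1 ≠ r + 2) := by
    intro χ
    obtain ⟨m, k, hd, hs⟩ := gl2_type_sum χ.2 r hr
    by_cases hm : m = 0
    · subst hm
      rw [zero_add] at hd
      by_cases h2 : Cfsg.charDegree χ.1 = r + 2
      · right; right; left
        exact h2
      · right; right; right
        refine ⟨⟨k, hd⟩, ?_, ?_, h2⟩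
        · intro h1
          rw [h1] at hd
          rcases Nat.eq_zero_or_pos k with h0 | h0
          · rw [h0] at hd
            omega
          · nlinarith
        · intro h1
          rw [h1] at hd
          have hk : k ≤ 1 ∨ 2 ≤ k := by omega
          rcases hk with h0 | h0
          · nlinarith
          · nlinarith
    · have hs' : ∑ x : F, χ.1 (tGL x) ≠ 0 := by
        rw [hs]
        exact mul_ne_zero hq0 (by exact_mod_cast hm)
      rcases gl2_noncusp χ.2 hs' with ⟨α, h⟩ | ⟨α, h⟩ | ⟨α, β, -, h⟩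
      · left
        exact ⟨⟨α, Subtype.ext h⟩, by rw [h]; exact d_det α⟩
      · right; left
        exact ⟨⟨α, Subtype.ext h⟩, by rw [h]; exact d_st α⟩
      · right; right; left
        rw [h]
        exact d_ps α β
  have B1 : (Finset.univ.filter (fun χ : Cfsg.IrrCharacter (GL (Fin 2) F) =>
      Cfsg.charDegree χ.1 = 1)) = Finset.univ.image (fun α : MulChar F ℂ =>
        (⟨detChar α, isIrrCharacter_detChar α⟩ : Cfsg.IrrCharacter (GL (Fin 2) F))) := by
    ext χ
    simp only [Finset.mem_filter, Finset.mem_univ, true_and, Finset.mem_image]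
    constructor
    · intro hd
      rcases hcl χ with h | h | h | h
      · obtain ⟨α, hα⟩ := h.1
        exact ⟨α, hα.symm⟩
      all_goals (exfalso; omega)
    · rintro ⟨α, rfl⟩
      exact d_det α
  have B2 : (Finset.univ.filter (fun χ : Cfsg.IrrCharacter (GL (Fin 2) F) =>
      Cfsg.charDegree χ.1 = r + 1)) = Finset.univ.image (fun α : MulChar F ℂ =>
        (⟨stGL α, isIrrCharacter_stGL α⟩ : Cfsg.IrrCharacter (GL (Fin 2) F))) := by
    ext χ
    simp only [Finset.mem_filter, Finset.mem_univ, true_and, Finset.mem_image]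
    constructor
    · intro hd
      rcases hcl χ with h | h | h | h
      · exfalso; omega
      · obtain ⟨α, hα⟩ := h.1
        exact ⟨α, hα.symm⟩
      all_goals (exfalso; omega)
    · rintro ⟨α, rfl⟩
      exact d_st α
  have N1 := congrArg Finset.card B1
  have N2 := congrArg Finset.card B2
  rw [Finset.card_image_of_injective _
    (fun α β h => detChar_injective (congrArg Subtype.val h)), Finset.card_univ, hcardM] at N1
  rw [Finset.card_image_of_injective _
    (fun α β h => stGL_injective (congrArg Subtype.val h)), Finset.card_univ, hcardM] at N2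
  have N3 : r.choose 2 ≤ (Finset.univ.filter
      (fun χ : Cfsg.IrrCharacter (GL (Fin 2) F) => Cfsg.charDegree χ.1 = r + 2)).card := by
    obtain ⟨T, hT, hTd⟩ := gl2_principal_family (F := F)
    have e : Fintype.card F - 1 = r := by omega
    rw [e] at hT
    rw [← hT]
    apply Finset.card_le_card
    intro χ hχ
    simp only [Finset.mem_filter, Finset.mem_univ, true_and]
    rw [hTd χ hχ, hr]
  -- the number of the irreducible characters
  have hnum : (Finset.univ : Finset (Cfsg.IrrCharacter (GL (Fin 2) F))).card + 1 =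
      (r + 1) ^ 2 := by
    rw [Finset.card_univ, ← Nat.card_eq_fintype_card,
      Cfsg.Agent.Lib.Helper80.card_irr_eq_card_conjClasses, hcls, hr]
    have : 1 ≤ (r + 1) ^ 2 := Nat.one_le_pow _ _ (by omega)
    omega
  rw [Finset.card_eq_sum_ones,
    Finset.sum_congr rfl (fun χ _ => one_indicator_decomp3 (r + 1) (r + 2) (by omega)
      (by omega) (by omega) (Cfsg.charDegree χ.1))] at hnum
  simp only [Finset.sum_add_distrib, sum_ite_const_card, mul_one] at hnum
  rw [N1, N2] at hnum
  -- the sum of the squares of the degrees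
  have hG : Nat.card (GL (Fin 2) F) = (r + 1) * r ^ 2 * (r + 2) := by
    have h := card_GL2_real (F := F)
    rw [hr] at h
    rw [Nat.card_eq_fintype_card]
    have h' : ((Fintype.card (GL (Fin 2) F) : ℕ) : ℝ) =
        (((r + 1) * r ^ 2 * (r + 2) : ℕ) : ℝ) := by
      rw [h]
      push_cast
      ring
    exact_mod_cast h'
  have hsum := Cfsg.Agent.Lib.Helper80.sum_charDegree_sq (G := GL (Fin 2) F)
  rw [hG, Finset.sum_congr rfl (fun χ _ => sq_indicator_decomp3 (r + 1) (r + 2) (by omega)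
      (by omega) (by omega) (Cfsg.charDegree χ.1))] at hsum
  simp only [Finset.sum_add_distrib, sum_ite_const_card] at hsum
  rw [N1, N2, ← Finset.sum_filter] at hsum
  -- the remaining characters
  have hO : ∀ χ ∈ Finset.univ.filter
      (fun χ : Cfsg.IrrCharacter (GL (Fin 2) F) =>
        Cfsg.charDegree χ.1 ≠ 1 ∧ Cfsg.charDegree χ.1 ≠ r + 1 ∧
          Cfsg.charDegree χ.1 ≠ r + 2),
      r ^ 2 ≤ Cfsg.charDegree χ.1 ^ 2 := by
    intro χ hχ
    simp only [Finset.mem_filter, Finset.mem_univ, true_and] at hχ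
    have hpos := Cfsg.Agent.Lib.Helper80.charDegree_pos χ.2
    rcases hcl χ with h | h | h | ⟨⟨k, hk⟩, -⟩
    · exact absurd h.2 hχ.1
    · exact absurd h.2 hχ.2.1
    · exact absurd h hχ.2.2
    · have hk1 : 1 ≤ k := by
        rcases Nat.eq_zero_or_pos k with h0 | h0
        · rw [hk, h0] at hpos
          omega
        · exact h0
      rw [hk]
      exact Nat.pow_le_pow_left (Nat.le_mul_of_pos_right _ hk1) 2
  have hRle := Finset.card_nsmul_le_sum _ _ _ hO
  rw [smul_eq_mul] at hRle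
  obtain ⟨hN3, hNO, hReq⟩ := gl2_count_arith r _ _ _ hr2 N3 hnum hRle hsum
  have hOeq : ∀ χ ∈ Finset.univ.filter
      (fun χ : Cfsg.IrrCharacter (GL (Fin 2) F) =>
        Cfsg.charDegree χ.1 ≠ 1 ∧ Cfsg.charDegree χ.1 ≠ r + 1 ∧
          Cfsg.charDegree χ.1 ≠ r + 2),
      Cfsg.charDegree χ.1 = r := by
    have h5 : ∑ χ ∈ Finset.univ.filter
        (fun χ : Cfsg.IrrCharacter (GL (Fin 2) F) =>
          Cfsg.charDegree χ.1 ≠ 1 ∧ Cfsg.charDegree χ.1 ≠ r + 1 ∧
            Cfsg.charDegree χ.1 ≠ r + 2), r ^ 2 =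
        ∑ χ ∈ Finset.univ.filter
        (fun χ : Cfsg.IrrCharacter (GL (Fin 2) F) =>
          Cfsg.charDegree χ.1 ≠ 1 ∧ Cfsg.charDegree χ.1 ≠ r + 1 ∧
            Cfsg.charDegree χ.1 ≠ r + 2), Cfsg.charDegree χ.1 ^ 2 := by
      rw [Finset.sum_const, smul_eq_mul, hReq]
    intro χ hχ
    have h6 := (Finset.sum_eq_sum_iff_of_le hO).mp h5 χ hχ
    exact (Nat.pow_left_injective (by norm_num : 2 ≠ 0) h6).symm
  have hcard : ∀ a : ℕ,
      Nat.card {χ : Cfsg.IrrCharacter (GL (Fin 2) F) // Cfsg.charDegree χ.1 = a} =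
      (Finset.univ.filter
        (fun χ : Cfsg.IrrCharacter (GL (Fin 2) F) => Cfsg.charDegree χ.1 = a)).card := by
    intro a
    rw [Nat.card_eq_fintype_card, Fintype.card_subtype]
  refine ⟨?_, ?_, ?_, ?_, ?_⟩
  · intro χ
    by_cases hχ : Cfsg.charDegree χ.1 ≠ 1 ∧ Cfsg.charDegree χ.1 ≠ r + 1 ∧
        Cfsg.charDegree χ.1 ≠ r + 2
    · right; left
      exact hOeq χ (by simp only [Finset.mem_filter, Finset.mem_univ, true_and]; exact hχ)
    · omega
  · rw [hcard, N1]
  · rw [hcard, N2]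
  · rw [hcard, hN3]
  · rw [hcard]
    have h7 : (Finset.univ.filter
        (fun χ : Cfsg.IrrCharacter (GL (Fin 2) F) => Cfsg.charDegree χ.1 = r)) =
        Finset.univ.filter (fun χ : Cfsg.IrrCharacter (GL (Fin 2) F) =>
        Cfsg.charDegree χ.1 ≠ 1 ∧ Cfsg.charDegree χ.1 ≠ r + 1 ∧
          Cfsg.charDegree χ.1 ≠ r + 2) := by
      ext χ
      simp only [Finset.mem_filter, Finset.mem_univ, true_and]
      constructor
      · intro h
        omega
      · intro h
        exact hOeq χ (by simp only [Finset.mem_filter, Finset.mem_univ, true_and]; exact h)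
    rw [h7]
    have h8 := two_mul_choose_two (r + 1)
    have e : r + 1 - 1 = r := by omega
    rw [e] at h8
    have h9 : 2 * (r + 1).choose 2 = 2 * (Finset.univ.filter
        (fun χ : Cfsg.IrrCharacter (GL (Fin 2) F) =>
        Cfsg.charDegree χ.1 ≠ 1 ∧ Cfsg.charDegree χ.1 ≠ r + 1 ∧
          Cfsg.charDegree χ.1 ≠ r + 2)).card := by
      rw [h8, hNO]
      ring
    omega

end GL2Class

end Cfsg.Agent.Lib.Helper39
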